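import Mathlib
import Cfsg.Agent.Fisch.Plane

/-!
# Fischer spaces
-/

set_option autoImplicit false

namespace CF.Fisch

open Cfsg Cfsg.LineSystem Subgroup

/-- a line system described by a binary operation -/
structure OpModel {X : Type*} (M : Set (Set X)) (op : X → X → X) : Prop where
  lines : ∀ l, l ∈ M ↔ ∃ p q, op p q ≠ q ∧ l = {z | z = p ∨ z = q ∨ z = op q p}
  self : ∀ a, op a a = a
  symm : ∀ p q, op p q ≠ q → op p q = op q p
  ne : ∀ p q, p ≠ q → op p q ≠ p
  symm' : ∀ p q, op p q = q → op q p = p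
  dist : ∀ a p q, op a (op p q) = op (op a p) (op a q)
  invol : ∀ a p, op a (op a p) = p

theorem OpModel.third {X : Type*} {M : Set (Set X)} {op : X → X → X} (h : OpModel M op) (p q : X)
    (hpq : op p q ≠ q) (a u : X) (hau : a ≠ u) (ha : a = p ∨ a = q ∨ a = op q p)
    (hu : u = p ∨ u = q ∨ u = op q p) : op a u ≠ u ∧ op a u ≠ a ∧
      ∀ z, (z = p ∨ z = q ∨ z = op q p) ↔ (z = a ∨ z = u ∨ z = op a u) := by
  have e1 := h.symm p q hpq
  have e2 : op p (op q p) = q := by rw [← e1, h.invol]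
  have e3 : op q (op q p) = p := h.invol _ _
  have n0 : p ≠ q := by rintro rfl; exact hpq (h.self p)
  have n1 : op q p ≠ p := fun e => hpq (h.symm' _ _ e)
  have n2 : op q p ≠ q := e1 ▸ hpq
  have e4 : op (op q p) p = q := by rw [← h.symm p _ (by rw [e2]; exact n2.symm), e2]
  have e5 : op (op q p) q = p := by rw [← h.symm q _ (by rw [e3]; exact n1.symm), e3]
  refine ⟨?_, h.ne a u hau, fun z => ?_⟩
  · rcases ha with rfl | rfl | rfl <;> rcases hu with rfl | rfl | rfl
    all_goals first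
      | exact absurd rfl hau
      | (try simp only [e1, e2, e3, e4, e5]) <;> tauto
  · rcases ha with rfl | rfl | rfl <;> rcases hu with rfl | rfl | rfl
    all_goals first
      | exact absurd rfl hau
      | (try simp only [e1, e2, e3, e4, e5]) <;> tauto

theorem OpModel.lineMap_eq {X : Type*} {M : Set (Set X)} {op : X → X → X} (h : OpModel M op)
    (a u : X) : lineMap M a u = op a u := by
  unfold lineMap
  split_ifs with h1
  · obtain ⟨h2, h3, h4, h5⟩ := h1.choose_spec
    obtain ⟨p, q, hpq, e⟩ := (h.lines _).1 h5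
    have m : ∀ z, z ∈ ({a, u, h1.choose} : Set X) ↔ (z = p ∨ z = q ∨ z = op q p) := fun z => by
      rw [e]; rfl
    have := ((h.third p q hpq a u h4 ((m a).1 (by simp)) ((m u).1 (by simp))).2.2 _).1
      ((m h1.choose).1 (by simp))
    tauto
  · by_contra hne
    have hau : a ≠ u := by rintro rfl; exact hne (h.self a).symm
    have := h.third a u (Ne.symm hne) u a hau.symm (by simp) (by simp)
    exact h1 ⟨op u a, this.1, this.2.1, hau, (h.lines _).2 ⟨a, u, Ne.symm hne, rfl⟩⟩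

theorem OpModel.image_mem {X : Type*} {M : Set (Set X)} {op : X → X → X} (h : OpModel M op)
    (a : X) {l : Set X} (hl : l ∈ M) : op a '' l ∈ M := by
  obtain ⟨p, q, hpq, rfl⟩ := (h.lines _).1 hl
  refine (h.lines _).2 ⟨op a p, op a q, fun e => hpq ?_, ?_⟩
  · rw [← h.dist] at e
    rw [← h.invol a (op p q), e, h.invol]
  · ext z
    simp only [Set.mem_image, Set.mem_ofPred_eq, ← h.dist]
    constructor
    · rintro ⟨x, rfl | rfl | rfl, rfl⟩ <;> simp
    · rintro (rfl | rfl | rfl)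
      exacts [⟨p, by simp, rfl⟩, ⟨q, by simp, rfl⟩, ⟨_, by simp, rfl⟩]

theorem opModel_affine : OpModel affinePlaneThree (fun p q => -p - q) where
  lines l := by
    have k1 : ∀ v w : Fin 2 → ZMod 3, w ≠ 0 → -v - (v + w) ≠ v + w ∧
        ∀ z, (∃ c : ZMod 3, z = v + c • w) ↔ (z = v ∨ z = v + w ∨ z = -(v + w) - v) := by
      decide +kernel
    have k2 : ∀ p q : Fin 2 → ZMod 3, -p - q ≠ q → q - p ≠ 0 := by decide +kernel
    constructor
    · rintro ⟨v, w, hw, rfl⟩
      exact ⟨v, v + w, (k1 v w hw).1, Set.ext (k1 v w hw).2⟩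
    · rintro ⟨p, q, hpq, rfl⟩
      refine ⟨p, q - p, k2 p q hpq, Set.ext fun z => ?_⟩
      have := (k1 p (q - p) (k2 p q hpq)).2 z
      rw [add_sub_cancel] at this
      exact this.symm
  self := by decide +kernel
  symm := by decide +kernel
  ne := by decide +kernel
  symm' := by decide +kernel
  dist := by decide +kernel
  invol := by decide +kernel

/-- the transposition attached to a two-element set -/
def dSw (s : DualAffinePoint) : Equiv.Perm (Fin 4) :=
  if 0 ∈ s.1 then (if 1 ∈ s.1 then Equiv.swap 0 1 else if 2 ∈ s.1 then Equiv.swap 0 2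
    else Equiv.swap 0 3)
  else if 1 ∈ s.1 then (if 2 ∈ s.1 then Equiv.swap 1 2 else Equiv.swap 1 3) else Equiv.swap 2 3

/-- conjugation of transpositions -/
def dOp (p q : DualAffinePoint) : DualAffinePoint :=
  ⟨q.1.map (dSw p).toEmbedding, by rw [Finset.card_map]; exact q.2⟩

theorem opModel_dual : OpModel dualAffinePlaneTwo dOp where
  lines l := by
    have k1 : ∀ i : Fin 4, ∃ p q : DualAffinePoint, dOp p q ≠ q ∧
        ∀ z : DualAffinePoint, i ∉ z.1 ↔ (z = p ∨ z = q ∨ z = dOp q p) := by decide +kernel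
    have k2 : ∀ p q : DualAffinePoint, dOp p q ≠ q → ∃ i : Fin 4,
        ∀ z : DualAffinePoint, (z = p ∨ z = q ∨ z = dOp q p) ↔ i ∉ z.1 := by decide +kernel
    constructor
    · rintro ⟨i, rfl⟩
      obtain ⟨p, q, h1, h2⟩ := k1 i
      exact ⟨p, q, h1, Set.ext h2⟩
    · rintro ⟨p, q, hpq, rfl⟩
      obtain ⟨i, hi⟩ := k2 p q hpq
      exact ⟨i, Set.ext hi⟩
  self := by decide +kernel
  symm := by decide +kernel
  ne := by decide +kernel
  symm' := by decide +kernel
  dist := by decide +kernel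
  invol := by decide +kernel

section general

variable {X Y : Type*} {L : Set (Set X)}

theorem lineMap_of_line (hL : IsPartialLinear L) {x y z : X} (h1 : z ≠ x) (h2 : z ≠ y) (h3 : x ≠ y)
    (h4 : ({x, y, z} : Set X) ∈ L) : lineMap L x y = z := by
  have h : ∃ z : X, z ≠ x ∧ z ≠ y ∧ x ≠ y ∧ ({x, y, z} : Set X) ∈ L := ⟨z, h1, h2, h3, h4⟩
  unfold lineMap
  rw [dif_pos h]
  obtain ⟨a1, a2, -, a4⟩ := h.choose_spec
  have e := hL _ a4 _ h4 x y h3 (by simp) (by simp) (by simp) (by simp)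
  have : h.choose ∈ ({x, y, z} : Set X) := e ▸ (by simp)
  simpa [a1, a2] using this

theorem lineMap_of_not {x y : X} (h : ¬ ∃ z : X, z ≠ x ∧ z ≠ y ∧ x ≠ y ∧ ({x, y, z} : Set X) ∈ L) :
    lineMap L x y = y := by
  unfold lineMap
  rw [dif_neg h]

theorem exists_third (h3 : ∀ l ∈ L, l.ncard = 3) {l : Set X} (hl : l ∈ L) {x y : X} (hx : x ∈ l)
    (hy : y ∈ l) (hxy : x ≠ y) : ∃ z, z ≠ x ∧ z ≠ y ∧ l = {x, y, z} := by
  obtain ⟨a, b, c, h1, h2, h4, rfl⟩ := Set.ncard_eq_three.1 (h3 l hl)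
  rcases hx with rfl | rfl | rfl <;> rcases hy with rfl | rfl | rfl
  all_goals first
    | exact absurd rfl hxy
    | exact ⟨c, by tauto, by tauto, by ext; simp; try tauto⟩
    | exact ⟨b, by tauto, by tauto, by ext; simp; try tauto⟩
    | exact ⟨a, by tauto, by tauto, by ext; simp; try tauto⟩

theorem lineMap_iso {M : Set (Set Y)} (hL : IsPartialLinear L) (hM : IsPartialLinear M) {e : X ≃ Y}
    (he : IsIso L M e) (x y : X) : lineMap M (e x) (e y) = e (lineMap L x y) := by
  by_cases h : ∃ z : X, z ≠ x ∧ z ≠ y ∧ x ≠ y ∧ ({x, y, z} : Set X) ∈ L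
  · obtain ⟨z, h1, h2, h3, h4⟩ := h
    rw [lineMap_of_line hL h1 h2 h3 h4]
    refine lineMap_of_line hM (e.injective.ne h1) (e.injective.ne h2) (e.injective.ne h3) ?_
    simpa [Set.image_insert_eq] using (he _).1 h4
  · rw [lineMap_of_not h, lineMap_of_not]
    rintro ⟨z, h1, h2, h3, h4⟩
    obtain ⟨z, rfl⟩ := e.surjective z
    refine h ⟨z, fun h => h1 (congrArg e h), fun h => h2 (congrArg e h), fun h => h3 (congrArg e h), ?_⟩
    rw [he]
    simpa [Set.image_insert_eq] using h4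

theorem lineMap_invol (hL : IsPartialLinear L) (x y : X) : lineMap L x (lineMap L x y) = y := by
  by_cases h : ∃ z : X, z ≠ x ∧ z ≠ y ∧ x ≠ y ∧ ({x, y, z} : Set X) ∈ L
  · obtain ⟨z, h1, h2, h3, h4⟩ := h
    rw [lineMap_of_line hL h1 h2 h3 h4]
    exact lineMap_of_line hL h3.symm h2.symm h1.symm (by rwa [Set.pair_comm])
  · rw [lineMap_of_not h, lineMap_of_not h]

theorem isSubspace_span (L : Set (Set X)) (S : Set X) : IsSubspace L (span L S) := by
  intro l hl x hx y hy hxy h1 h2 z hz T hT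
  exact hT.2 l hl x (hx T hT) y (hy T hT) hxy h1 h2 hz

theorem subset_span (L : Set (Set X)) (S : Set X) : S ⊆ span L S := fun _ hx _ hT => hT.1 hx

theorem mem_restrict {S : Set X} {m : Set S} : m ∈ restrict L S ↔ Subtype.val '' m ∈ L := by
  constructor
  · rintro ⟨l, hl, hS, rfl⟩
    convert hl
    ext x
    simp only [Set.mem_image, Set.mem_ofPred_eq]
    exact ⟨fun ⟨y, h1, h2⟩ => h2 ▸ h1, fun h => ⟨⟨x, hS h⟩, h, rfl⟩⟩
  · intro h
    exact ⟨_, h, by simp, by ext x; simp⟩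

theorem partialLinear_restrict (hL : IsPartialLinear L) (S : Set X) :
    IsPartialLinear (restrict L S) := by
  intro l hl m hm x y hxy h1 h2 h3 h4
  refine Set.image_injective.2 Subtype.val_injective ?_
  exact hL _ (mem_restrict.1 hl) _ (mem_restrict.1 hm) x y (fun h => hxy (Subtype.ext h))
    ⟨x, h1, rfl⟩ ⟨y, h2, rfl⟩ ⟨x, h3, rfl⟩ ⟨y, h4, rfl⟩

theorem partialLinear_of_iso {M : Set (Set Y)} (hL : IsPartialLinear L) {e : X ≃ Y}
    (he : IsIso L M e) : IsPartialLinear M := by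
  intro l hl m hm x y hxy h1 h2 h3 h4
  obtain ⟨l, rfl⟩ := (Set.image_surjective.2 e.surjective) l
  obtain ⟨m, rfl⟩ := (Set.image_surjective.2 e.surjective) m
  obtain ⟨x, rfl⟩ := e.surjective x
  obtain ⟨y, rfl⟩ := e.surjective y
  rw [e.injective.mem_set_image] at h1 h2 h3 h4
  rw [hL l ((he l).2 hl) m ((he m).2 hm) x y (fun h => hxy (congrArg e h)) h1 h2 h3 h4]

theorem lineMap_restrict (hL : IsPartialLinear L) {S : Set X} (hS : IsSubspace L S) (x y : S) :
    ((lineMap (restrict L S) x y : S) : X) = lineMap L x y := by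
  by_cases h : ∃ z : X, z ≠ x ∧ z ≠ y ∧ (x : X) ≠ y ∧ ({(x : X), (y : X), z} : Set X) ∈ L
  · obtain ⟨z, h1, h2, h3, h4⟩ := h
    have hz : z ∈ S := hS _ h4 x x.2 y y.2 h3 (by simp) (by simp) (by simp)
    rw [lineMap_of_line hL h1 h2 h3 h4, lineMap_of_line (partialLinear_restrict hL S) (z := ⟨z, hz⟩)
      (fun h => h1 (congrArg Subtype.val h)) (fun h => h2 (congrArg Subtype.val h))
      (fun h => h3 (congrArg Subtype.val h))]
    rw [mem_restrict]
    simpa [Set.image_insert_eq] using h4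
  · rw [lineMap_of_not h, lineMap_of_not]
    rintro ⟨z, h1, h2, h3, h4⟩
    refine h ⟨z, fun h => h1 (Subtype.ext h), fun h => h2 (Subtype.ext h),
      fun h => h3 (Subtype.ext h), ?_⟩
    simpa [Set.image_insert_eq] using mem_restrict.1 h4

theorem image_mem_of_plane (hL : IsPartialLinear L) {S : Set X} (hS : IsSubspace L S)
    {M : Set (Set Y)} {op : Y → Y → Y} (hM : OpModel M op) (h : Isomorphic (restrict L S) M)
    {x : X} (hx : x ∈ S) {l : Set X} (hl : l ∈ L) (hlS : l ⊆ S) : lineMap L x '' l ∈ L := by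
  obtain ⟨e, he⟩ := h
  have hR := partialLinear_restrict hL S
  have h1 : {z : S | (z : X) ∈ l} ∈ restrict L S := ⟨l, hl, hlS, rfl⟩
  have h2 := hM.image_mem (e ⟨x, hx⟩) ((he _).1 h1)
  have h3 : op (e ⟨x, hx⟩) '' (e '' {z : S | (z : X) ∈ l}) =
      e '' (lineMap (restrict L S) ⟨x, hx⟩ '' {z : S | (z : X) ∈ l}) := by
    rw [Set.image_image, Set.image_image]
    refine Set.image_congr fun z _ => ?_
    rw [← hM.lineMap_eq, lineMap_iso hR (partialLinear_of_iso hR he) he]
  rw [h3, ← he, mem_restrict, Set.image_image] at h2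
  convert h2 using 1
  ext z
  simp only [Set.mem_image, Set.mem_ofPred_eq, lineMap_restrict hL hS]
  exact ⟨fun ⟨w, h1, h2⟩ => ⟨⟨w, hlS h1⟩, h1, h2⟩, fun ⟨w, h1, h2⟩ => ⟨w, h1, h2⟩⟩

theorem fischer_image_mem (hL : IsFischerSpace L) (x : X) {l : Set X} (hl : l ∈ L) :
    lineMap L x '' l ∈ L := by
  by_cases h : ∃ y ∈ l, ∃ z : X, z ≠ x ∧ z ≠ y ∧ x ≠ y ∧ ({x, y, z} : Set X) ∈ L
  · obtain ⟨y, hy, z, h1, h2, h3, h4⟩ := h
    by_cases e : l = {x, y, z}
    · have a1 := lineMap_of_line hL.1 h1 h2 h3 h4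
      have a2 := lineMap_invol hL.1 x y
      have a3 : lineMap L x x = x := lineMap_of_not (by simp)
      rw [a1] at a2
      rw [e, Set.image_insert_eq, Set.image_pair, a1, a2, a3, Set.pair_comm]
      exact h4
    · have hs := subset_span L (l ∪ {x, y, z})
      rcases hL.2.2 l hl _ h4 e ⟨y, hy, by simp⟩ with h5 | h5
      · exact image_mem_of_plane hL.1 (isSubspace_span _ _) opModel_dual h5 (hs (by simp)) hl
          (Set.subset_union_left.trans hs)
      · exact image_mem_of_plane hL.1 (isSubspace_span _ _) opModel_affine h5 (hs (by simp)) hl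
          (Set.subset_union_left.trans hs)
  · have : lineMap L x '' l = l :=
      (Set.image_congr (g := id) fun y hy => lineMap_of_not fun h' => h ⟨y, hy, h'⟩).trans
        (Set.image_id l)
    rwa [this]

end general

variable {G : Type*} [Group G] {D : Set G}

/-- the line through two members -/
def ttLine (D : Set G) (x y : G) : Set D := {z : D | (z : G) = x ∨ (z : G) = y ∨ (z : G) = y * x * y⁻¹}

theorem ttLine_eq (hT : IsThreeTranspositionSet D) {x y : G} (hx : x ∈ D) (hy : y ∈ D)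
    (hxy : ¬ Commute x y) {u v : D} (hu : u ∈ ttLine D x y) (hv : v ∈ ttLine D x y) (huv : u ≠ v) :
    ¬ Commute (u : G) v ∧ ttLine D x y = ttLine D u v := by
  have b := tt_braid hT hx hy hxy
  have sx := tt_sq hT hx
  have sy := tt_sq hT hy
  have n1 : ¬ Commute x (y * x * y) := fun c => hxy (by
    have := c.conj x
    rwa [tt_inv hT hx, q_self sx, ← b, q_inv sx rfl] at this)
  have n2 : ¬ Commute y (y * x * y) := fun c => hxy (by
    have := c.conj y
    rw [tt_inv hT hy, q_self sy, q_inv sy rfl] at this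
    exact this.symm)
  have e1 : x * (y * x * y) * x = y := by rw [← b, q_inv sx rfl]
  have e2 : y * (y * x * y) * y = x := q_inv sy rfl
  have e3 : (y * x * y) * x * (y * x * y) = y := by
    calc _ = y * x * (y * x * y) * x * y := by group
      _ = y * (x * (y * x * y) * x) * y := by group
      _ = y := by rw [e1, q_self sy]
  have e4 : (y * x * y) * y * (y * x * y) = x := by
    calc _ = y * x * (y * y) * y * x * y := by group
      _ = y * (x * y * x) * y := by rw [sy]; group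
      _ = x := by rw [b, q_inv sy rfl]
  have huv' : (u : G) ≠ v := fun h => huv (Subtype.ext h)
  simp only [ttLine, Set.mem_ofPred_eq, tt_inv hT hy, tt_inv hT v.2] at hu hv ⊢
  rcases hu with hu | hu | hu <;> rcases hv with hv | hv | hv <;> rw [hu, hv] at huv' ⊢
  all_goals first
    | exact absurd rfl huv'
    | refine ⟨?_, by ext z; simp only [Set.mem_ofPred_eq, b, e1, e2, e3, e4] <;> tauto⟩
      first
        | assumption
        | exact fun c => hxy c.symm
        | exact fun c => n1 c.symm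
        | exact fun c => n2 c.symm

theorem isomorphic_of_points (hT : IsThreeTranspositionSet D) {X : Type*} {M : Set (Set X)}
    {op : X → X → X} (hM : OpModel M op) (f : X → G) (hf : Function.Injective f) (hfD : ∀ p, f p ∈ D)
    (hop : ∀ p q, f p * f q * f p = f (op p q)) {S : Set D} (hS : ∀ z ∈ S, ∃ p, f p = z)
    (hgen : ∀ T : Set X, (∀ p, (⟨f p, hfD p⟩ : D) ∈ S → p ∈ T) → (∀ p ∈ T, ∀ q ∈ T, op p q ∈ T) →
      ∀ p, p ∈ T) :
    Isomorphic (restrict (threeTranspositionLines D) (span (threeTranspositionLines D) S)) M := by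
  have hcm : ∀ p q, Commute (f p) (f q) ↔ op p q = q := fun p q => by
    rw [commute_iff_conj (tt_sq hT (hfD p)), hop, hf.eq_iff]
  have hline : ∀ p q, ttLine D (f p) (f q) =
      (fun r => (⟨f r, hfD r⟩ : D)) '' {z | z = p ∨ z = q ∨ z = op q p} := by
    intro p q
    ext z
    simp only [ttLine, Set.mem_ofPred_eq, tt_inv hT (hfD q), hop, Set.mem_image]
    constructor
    · rintro (h | h | h)
      exacts [⟨p, by simp, Subtype.ext h.symm⟩, ⟨q, by simp, Subtype.ext h.symm⟩,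
        ⟨_, by simp, Subtype.ext h.symm⟩]
    · rintro ⟨r, rfl | rfl | rfl, rfl⟩ <;> simp
  have h1 : ∀ z ∈ span (threeTranspositionLines D) S, ∃ p, f p = z := by
    intro z hz
    refine hz {z | ∃ p, f p = z} ⟨hS, ?_⟩
    rintro _ ⟨x, y, hxy, rfl⟩ u ⟨p, hp⟩ v ⟨q, hq⟩ huv hu hv w hw
    have := (ttLine_eq hT x.2 y.2 hxy hu hv huv).2
    have hw' : w ∈ ttLine D x y := hw
    rw [this, ← hp, ← hq, hline] at hw'
    obtain ⟨r, -, rfl⟩ := hw'
    exact ⟨r, rfl⟩
  have h2 : ∀ p, (⟨f p, hfD p⟩ : D) ∈ span (threeTranspositionLines D) S := by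
    refine hgen {p | (⟨f p, hfD p⟩ : D) ∈ span (threeTranspositionLines D) S}
      (fun p hp => subset_span _ _ hp) fun p hp q hq => ?_
    by_cases h : op p q = q
    · rwa [h]
    · have hn : ¬ Commute (f q) (f p) := fun c => h ((hcm p q).1 c.symm)
      have hl : ttLine D (f q) (f p) ∈ threeTranspositionLines D :=
        ⟨⟨f q, hfD q⟩, ⟨f p, hfD p⟩, hn, rfl⟩
      refine isSubspace_span _ _ (ttLine D (f q) (f p)) hl _ hp _ hq
        (fun e => hn ?_) (by simp [ttLine]) (by simp [ttLine]) ?_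
      · rw [show f p = f q from congrArg Subtype.val e]
      · rw [hline]; exact Set.mem_image_of_mem _ (by simp)
  let g : X → span (threeTranspositionLines D) S := fun p => ⟨⟨f p, hfD p⟩, h2 p⟩
  have hg : Function.Bijective g := by
    refine ⟨fun p q h => hf (congrArg (fun z => z.1.1) h), fun z => ?_⟩
    obtain ⟨p, hp⟩ := h1 z z.2
    exact ⟨p, Subtype.ext (Subtype.ext hp)⟩
  refine ⟨(Equiv.ofBijective g hg).symm, fun l => ?_⟩
  obtain ⟨l, rfl⟩ := (Set.image_surjective.2 hg.2) l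
  have e1 : (Equiv.ofBijective g hg).symm '' (g '' l) = l :=
    (Equiv.ofBijective g hg).symm_image_image l
  rw [e1, mem_restrict, Set.image_image, hM.lines]
  have hinj : Function.Injective (fun r => (⟨f r, hfD r⟩ : D)) :=
    fun p q h => hf (congrArg Subtype.val h)
  constructor
  · rintro ⟨x, y, hxy, e⟩
    have hx : x ∈ (fun r => (⟨f r, hfD r⟩ : D)) '' l := by rw [e]; simp
    have hy : y ∈ (fun r => (⟨f r, hfD r⟩ : D)) '' l := by rw [e]; simp
    obtain ⟨p, -, rfl⟩ := hx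
    obtain ⟨q, -, rfl⟩ := hy
    exact ⟨p, q, fun h => hxy ((hcm p q).2 h), Set.image_injective.2 hinj (e.trans (hline p q))⟩
  · rintro ⟨p, q, hpq, rfl⟩
    exact ⟨⟨f p, hfD p⟩, ⟨f q, hfD q⟩, fun c => hpq ((hcm p q).1 c), (hline p q).symm⟩

theorem ttLines_partialLinear (hT : IsThreeTranspositionSet D) :
    IsPartialLinear (threeTranspositionLines D) := by
  rintro _ ⟨x, y, hxy, rfl⟩ _ ⟨x', y', hxy', rfl⟩ u v huv h1 h2 h3 h4
  exact ((ttLine_eq hT x.2 y.2 hxy h1 h2 huv).2).trans (ttLine_eq hT x'.2 y'.2 hxy' h3 h4 huv).2.symm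

theorem ttLine_ncard (hT : IsThreeTranspositionSet D) (hc : ∀ g : G, ∀ d ∈ D, g * d * g⁻¹ ∈ D)
    {x y : D} (hxy : ¬ Commute (x : G) y) : (ttLine D x y).ncard = 3 := by
  refine Set.ncard_eq_three.2 ⟨x, y, ⟨_, hc y x x.2⟩, ?_, ?_, ?_, ?_⟩
  · rintro rfl; exact hxy (Commute.refl _)
  · intro h
    exact hxy (commute_iff_conj'.2 (congrArg Subtype.val h).symm).symm
  · intro h
    have h1 : (y : G) = y * x * (y : G)⁻¹ := congrArg Subtype.val h
    have h2 : (x : G) = y := by
      calc (x : G) = (y : G)⁻¹ * (y * x * (y : G)⁻¹) * y := by group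
        _ = y := by rw [← h1]; group
    exact hxy (h2 ▸ Commute.refl _)
  · ext z
    simp only [ttLine, Set.mem_ofPred_eq, Set.mem_insert_iff, Set.mem_singleton_iff, Subtype.ext_iff]

theorem dual_plane (hT : IsThreeTranspositionSet D) (hc : ∀ g : G, ∀ d ∈ D, g * d * g⁻¹ ∈ D)
    {a p c : D} (hac : Commute (a : G) c) (hne : a ≠ c) (hap : ¬ Commute (a : G) p)
    (hpc : ¬ Commute (p : G) c) :
    Isomorphic (restrict (threeTranspositionLines D)
      (span (threeTranspositionLines D) (ttLine D a p ∪ ttLine D c p))) dualAffinePlaneTwo := by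
  obtain ⟨φ, p1, p2, p3, -⟩ := exists_S4_hom (tt_sq hT a.2) (tt_sq hT p.2) (tt_sq hT c.2) hac
    (tt_braid hT a.2 p.2 hap) (tt_braid hT p.2 c.2 hpc)
  have hφ := perm4_ker (φ := φ) (by rw [p1, p3]; exact fun h => hne (Subtype.ext h))
  have k1 : ∀ s t, dSw (dOp s t) = dSw s * dSw t * dSw s := by decide +kernel
  have k2 : Function.Injective dSw := by unfold Function.Injective; decide +kernel
  have k3 : ∀ s, ∃ g : Equiv.Perm (Fin 4), dSw s = g * Equiv.swap 0 1 * g⁻¹ := by decide +kernel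
  let s01 : DualAffinePoint := ⟨{0, 1}, by decide⟩
  let s12 : DualAffinePoint := ⟨{1, 2}, by decide⟩
  let s23 : DualAffinePoint := ⟨{2, 3}, by decide⟩
  have q1 : φ (dSw s01) = a := p1
  have q2 : φ (dSw s12) = p := p2
  have q3 : φ (dSw s23) = c := p3
  refine isomorphic_of_points hT opModel_dual (fun s => φ (dSw s)) (hφ.comp k2) (fun s => ?_)
    (fun s t => by rw [k1, map_mul, map_mul]) ?_ ?_
  · obtain ⟨g, hg⟩ := k3 s
    rw [hg, map_mul, map_mul, map_inv, p1]
    exact hc _ _ a.2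
  · rintro z ((h | h | h) | (h | h | h))
    · exact ⟨s01, q1.trans h.symm⟩
    · exact ⟨s12, q2.trans h.symm⟩
    · exact ⟨dOp s12 s01, by rw [k1, map_mul, map_mul, q1, q2, h, tt_inv hT p.2]⟩
    · exact ⟨s23, q3.trans h.symm⟩
    · exact ⟨s12, q2.trans h.symm⟩
    · exact ⟨dOp s12 s23, by rw [k1, map_mul, map_mul, q3, q2, h, tt_inv hT p.2]⟩
  · intro T h1 h2 s
    have a1 := h1 s01 (Or.inl (Or.inl q1))
    have a2 := h1 s12 (Or.inl (Or.inr (Or.inl q2)))
    have a3 := h1 s23 (Or.inr (Or.inl q3))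
    have k4 : ∀ s, s = s01 ∨ s = s12 ∨ s = s23 ∨ s = dOp s01 s12 ∨ s = dOp s12 s23 ∨
      s = dOp s01 (dOp s12 s23) := by decide +kernel
    rcases k4 s with rfl | rfl | rfl | rfl | rfl | rfl
    exacts [a1, a2, a3, h2 _ a1 _ a2, h2 _ a2 _ a3, h2 _ a1 _ (h2 _ a2 _ a3)]

theorem affine_plane (hT : IsThreeTranspositionSet D) (hc : ∀ g : G, ∀ d ∈ D, g * d * g⁻¹ ∈ D)
    {a p c : D} (hac : ¬ Commute (a : G) c) (hap : ¬ Commute (a : G) p)
    (hpc : ¬ Commute (p : G) c) (h4 : ¬ Commute ((p : G) * a * p) c) (hcl : c ∉ ttLine D a p) :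
    Isomorphic (restrict (threeTranspositionLines D)
      (span (threeTranspositionLines D) (ttLine D a p ∪ ttLine D c p))) affinePlaneThree := by
  obtain ⟨f, f0, f1, f2, hfD, -, hf⟩ := ag_plane hT (fun a ha b hb => tt_mem hT hc ha hb) p.2 a.2 c.2
    (tt_braid hT p.2 a.2 fun h => hap h.symm) (tt_braid hT p.2 c.2 hpc) (tt_braid hT a.2 c.2 hac)
    (tt_braid hT (tt_mem hT hc p.2 a.2) c.2 h4)
  have hinj : Function.Injective f := by
    intro u v huv
    by_contra hne
    have t1 : ∀ w, f (w + (u - v)) = f w := by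
      intro w
      have e1 := hf (-u - w) u
      have e2 := hf (-u - w) v
      rw [huv, e2] at e1
      convert e1 using 2 <;> abel
    have t2 : ∀ w, f (w + (u - v) + (u - v)) = f w := fun w => by rw [t1, t1]
    have k : ∀ t : Fin 2 → ZMod 3, t ≠ 0 → ![0, 0] + t = ![1, 0] ∨ ![0, 0] + t + t = ![1, 0] ∨
        ∃ w, (w = ![0, 0] ∨ w = ![1, 0] ∨ w = -![0, 0] - ![1, 0]) ∧
          (w + t = ![0, 1] ∨ w + t + t = ![0, 1]) := by decide +kernel
    have hpa : f ![1, 0] ≠ f ![0, 0] := by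
      rw [f0, f1]; intro h; exact hap (h ▸ Commute.refl _)
    rcases k (u - v) (sub_ne_zero.2 hne) with h | h | ⟨w, hw, h⟩
    · exact hpa (by rw [← h, t1])
    · exact hpa (by rw [← h, t2])
    · have h1 : (c : G) = f w := by
        rcases h with h | h
        · rw [← f2, ← h, t1]
        · rw [← f2, ← h, t2]
      apply hcl
      rcases hw with rfl | rfl | rfl
      · exact Or.inr (Or.inl (h1.trans f0))
      · exact Or.inl (h1.trans f1)
      · exact Or.inr (Or.inr (by rw [h1, ← hf, f0, f1, tt_inv hT p.2]))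
  refine isomorphic_of_points hT opModel_affine f hinj hfD hf ?_ ?_
  · rintro z ((h | h | h) | (h | h | h))
    · exact ⟨_, f1.trans h.symm⟩
    · exact ⟨_, f0.trans h.symm⟩
    · exact ⟨_, by rw [h, tt_inv hT p.2, ← f0, ← f1, hf]⟩
    · exact ⟨_, f2.trans h.symm⟩
    · exact ⟨_, f0.trans h.symm⟩
    · exact ⟨_, by rw [h, tt_inv hT p.2, ← f0, ← f2, hf]⟩
  · intro T h1 h2 s
    have a1 := h1 _ (Or.inl (Or.inl f1))
    have a2 := h1 _ (Or.inl (Or.inr (Or.inl f0)))
    have a3 := h1 _ (Or.inr (Or.inl f2))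
    have b1 := h2 _ a1 _ a2
    have b2 := h2 _ a1 _ a3
    have b3 := h2 _ a2 _ a3
    have c1 := h2 _ b1 _ a3
    have c2 := h2 _ b1 _ b3
    have c3 := h2 _ a1 _ b3
    have k : ∀ s : Fin 2 → ZMod 3, s = ![1, 0] ∨ s = ![0, 0] ∨ s = ![0, 1] ∨
        s = -![1, 0] - ![0, 0] ∨ s = -![1, 0] - ![0, 1] ∨ s = -![0, 0] - ![0, 1] ∨
        s = -(-![1, 0] - ![0, 0]) - ![0, 1] ∨ s = -(-![1, 0] - ![0, 0]) - (-![0, 0] - ![0, 1]) ∨
        s = -![1, 0] - (-![0, 0] - ![0, 1]) := by decide +kernel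
    rcases k s with rfl | rfl | rfl | rfl | rfl | rfl | rfl | rfl | rfl <;> assumption

end CF.Fisch
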